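import Mathlib
import Cfsg.Agent.Lib.Helper6.SUG.Q2Defs

/-!
# Project SUG (S2412), block [Q2]: package [Q2-DIAG4]

`K` contains diagonal matrices with arbitrary non-zero entries at the coordinates `0, 1, 2, 3`.
-/

set_option autoImplicit false

namespace Cfsg.Agent.Lib.Helper59.SUG

open Matrix Cfsg.Agent.Lib.Helper60.SUG Cfsg.Agent.Lib.Helper6.SUG

universe u

/-- the elements of a field with four elements -/
theorem f4_cases {F : Type u} [Field F] [Fintype F] (hF : Fintype.card F = 2 ^ 2) (ω : F)
    (h1 : ω ≠ 1) (h3 : ω ^ 3 = 1) (x : F) : x = 0 ∨ x = 1 ∨ x = ω ∨ x = ω ^ 2 := by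
  classical
  have h0 : ω ≠ 0 := by
    rintro rfl
    simp at h3
  have h21 : ω ^ 2 ≠ 1 := by
    intro h
    apply h1
    have e : ω ^ 3 = ω := by rw [pow_succ, h, one_mul]
    rw [h3] at e
    exact e.symm
  have h2ω : ω ^ 2 ≠ ω := by
    intro h
    apply h1
    have e : ω * ω = ω * 1 := by rw [mul_one, ← pow_two]; exact h
    exact mul_left_cancel₀ h0 e
  have h20 : ω ^ 2 ≠ 0 := pow_ne_zero 2 h0
  have hcard : ({0, 1, ω, ω ^ 2} : Finset F).card = 4 := by
    rw [Finset.card_insert_of_notMem, Finset.card_insert_of_notMem,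
      Finset.card_insert_of_notMem, Finset.card_singleton]
    · rw [Finset.mem_singleton]
      exact fun h => h2ω h.symm
    · rw [Finset.mem_insert, Finset.mem_singleton]
      rintro (h | h)
      · exact h1 h.symm
      · exact h21 h.symm
    · rw [Finset.mem_insert, Finset.mem_insert, Finset.mem_singleton]
      rintro (h | h | h)
      · exact zero_ne_one h
      · exact h0 h.symm
      · exact h20 h.symm
  have huniv := Finset.eq_univ_of_card ({0, 1, ω, ω ^ 2} : Finset F) (by rw [hcard, hF]; norm_num)
  have hx := Finset.mem_univ x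
  rw [← huniv] at hx
  simpa using hx

theorem isDiag_one {F : Type u} [Field F] {n : ℕ} :
    IsDiag (1 : ↥(Cfsg.SU n F 2)) (fun _ => (1 : F)) := by
  show ((1 : Matrix (Fin n) (Fin n) F)) = Matrix.diagonal (fun _ => (1 : F))
  rw [Matrix.diagonal_one]

theorem isDiag_mul {F : Type u} [Field F] {n : ℕ} {g g' : ↥(Cfsg.SU n F 2)} {z z' : Fin n → F}
    (h : IsDiag g z) (h' : IsDiag g' z') : IsDiag (g * g') (fun i => z i * z' i) := by
  show mat g * mat g' = Matrix.diagonal (fun i => z i * z' i)
  rw [h, h', Matrix.diagonal_mul_diagonal]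

theorem pairVec_cube {F : Type u} [Field F] {n : ℕ} (ω : F) (h3 : ω ^ 3 = 1) (i j k : Fin n) :
    pairVec ω i j k ^ 3 = 1 := by
  unfold pairVec
  split_ifs
  · exact h3
  · rw [← pow_mul, mul_comm, pow_mul, h3, one_pow]
  · exact one_pow 3

theorem pkgQ2Diag4 : PkgQ2Diag4.{u} := by
  intro F _ _ hF n hn K ω h1 h3 hP x hx
  obtain ⟨n', rfl⟩ : ∃ n', n = n' + 1 := ⟨n - 1, by omega⟩
  have key : ∀ m : ℕ, m ≤ 4 → ∃ g ∈ K, ∃ z : Fin (n' + 1) → F, IsDiag g z ∧ (∀ k, z k ^ 3 = 1) ∧
      ∀ k : Fin (n' + 1), (k : ℕ) < m → z k = x k := by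
    intro m
    induction m with
    | zero =>
      intro _
      exact ⟨1, K.one_mem, fun _ => 1, isDiag_one, fun _ => one_pow 3, fun k hk => absurd hk (by omega)⟩
    | succ m ih =>
      intro hm
      obtain ⟨g, hgK, z, hgz, hz3, hzx⟩ := ih (by omega)
      obtain ⟨j, hj⟩ : ∃ j : Fin (n' + 1), (j : ℕ) = m := ⟨⟨m, by omega⟩, rfl⟩
      obtain ⟨p, hpK, hp⟩ := hP j
      have hjl : j ≠ Fin.last n' := by
        intro h
        have := congrArg Fin.val h
        rw [hj, Fin.val_last] at this
        omega
      have hrot : ((finRotate (n' + 1) j : Fin (n' + 1)) : ℕ) = m + 1 := by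
        rw [coe_finRotate_of_ne_last hjl, hj]
      have hzj : z j ≠ 0 := by
        intro h
        have := hz3 j
        rw [h] at this
        simp at this
      have hxj : x j ≠ 0 := hx j (by omega)
      have hpv : ∀ k : Fin (n' + 1), (k : ℕ) < m → pairVec ω j (finRotate (n' + 1) j) k = 1 := by
        intro k hk
        unfold pairVec
        rw [if_neg, if_neg]
        · intro h
          have := congrArg Fin.val h
          rw [hrot] at this
          omega
        · intro h
          have := congrArg Fin.val h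
          rw [hj] at this
          omega
      have hpj : pairVec ω j (finRotate (n' + 1) j) j = ω := by
        unfold pairVec
        rw [if_pos rfl]
      have hy : x j / z j ≠ 0 := div_ne_zero hxj hzj
      rcases f4_cases hF ω h1 h3 (x j / z j) with h | h | h | h
      · exact absurd h hy
      · refine ⟨g, hgK, z, hgz, hz3, ?_⟩
        intro k hk
        rcases Nat.lt_succ_iff_lt_or_eq.mp hk with hk' | hk'
        · exact hzx k hk'
        · have hkj : k = j := Fin.ext (by rw [hk', hj])
          rw [hkj]
          field_simp at h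
          exact h.symm
      · refine ⟨g * p, K.mul_mem hgK hpK, _, isDiag_mul hgz hp, ?_, ?_⟩
        · intro k
          rw [mul_pow, hz3, pairVec_cube ω h3, one_mul]
        · intro k hk
          rcases Nat.lt_succ_iff_lt_or_eq.mp hk with hk' | hk'
          · rw [hpv k hk', mul_one]
            exact hzx k hk'
          · have hkj : k = j := Fin.ext (by rw [hk', hj])
            rw [hkj, hpj, ← h]
            field_simp
      · refine ⟨g * p * p, K.mul_mem (K.mul_mem hgK hpK) hpK, _,
          isDiag_mul (isDiag_mul hgz hp) hp, ?_, ?_⟩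
        · intro k
          rw [mul_pow, mul_pow, hz3, pairVec_cube ω h3, one_mul, one_mul]
        · intro k hk
          rcases Nat.lt_succ_iff_lt_or_eq.mp hk with hk' | hk'
          · rw [hpv k hk', mul_one, mul_one]
            exact hzx k hk'
          · have hkj : k = j := Fin.ext (by rw [hk', hj])
            rw [hkj, hpj, mul_assoc, ← pow_two, ← h]
            field_simp
  obtain ⟨g, hgK, z, hgz, -, hzx⟩ := key 4 le_rfl
  exact ⟨g, hgK, z, hgz, hzx⟩

end Cfsg.Agent.Lib.Helper59.SUG
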