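import Mathlib
import Cfsg.Agent.Lib.Helper6.SUG.Q2Defs
import Cfsg.Agent.Lib.Helper13.UTransvComm
import Cfsg.Agent.Lib.Helper59.SUG.Q2Diag4

/-!
# Project SUG (S2412), block [Q2]: package [Q2-GENS]

The two generators `a = T_w * d`, `b = c` of `SU_n(2)`, `n ≥ 5`.
-/

set_option autoImplicit false

namespace Cfsg.Agent.Lib.Helper59.SUG

open Matrix Cfsg.Agent.Lib.Helper60.SUG Cfsg.Agent.Lib.Helper6.SUG Cfsg.Agent.Lib.Helper13
open Cfsg.Agent.Lib.Helper45

universe u

theorem f4_two {F : Type u} [Field F] [Fintype F] (hF : Fintype.card F = 2 ^ 2) : (2 : F) = 0 := by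
  have h := FiniteField.cast_card_eq_zero F
  rw [hF] at h
  have h4 : (2 : F) * 2 = 0 := by
    have : ((2 ^ 2 : ℕ) : F) = 2 * 2 := by norm_num
    rw [← this]; exact h
  exact mul_self_eq_zero.mp h4

/-- `t = T_w` and a diagonal `d` with cube-root-of-unity entries, constant on the support of `w`:
both are powers of `t * d`. -/
theorem gens_core {F : Type u} [Field F] [Fintype F] (hF : Fintype.card F = 2 ^ 2) {n : ℕ}
    (hn : 4 ≤ n) (t d : ↥(Cfsg.SU n F 2)) (z : Fin n → F) (ht : IsTw t) (hd : IsDiag d z)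
    (hz3 : ∀ i, z i ^ 3 = 1)
    (hconst : ∀ i j : Fin n, (i : ℕ) < 4 → (j : ℕ) < 4 → z i = z j) :
    (t * d) ^ 3 = t ∧ (t * d) ^ 4 = d := by
  have h2 : (2 : F) = 0 := f4_two hF
  have hw : Cfsg.hermForm n F 2 (wVec n F) (wVec n F) = 0 := by
    have hdet : (mat t).det = 1 := (t : Matrix.SpecialLinearGroup (Fin n) F).2
    rw [ht, utransv_eq, det_one_add_smul_hermRank1, one_mul] at hdet
    linear_combination hdet
  have ht2 : t * t = 1 := by
    apply su_ext
    show mat t * mat t = 1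
    rw [ht, utransv_mul _ _ _ hw, utransv_eq]
    have : (1 : F) + 1 = 0 := by linear_combination h2
    rw [this, zero_smul, add_zero]
  have hd3 : d * d * d = 1 := by
    apply su_ext
    show mat d * mat d * mat d = 1
    rw [hd, Matrix.diagonal_mul_diagonal, Matrix.diagonal_mul_diagonal]
    have : (fun i => z i * z i * z i) = fun _ => (1 : F) := by
      funext i
      rw [← hz3 i]; ring
    rw [this, Matrix.diagonal_one]
  have hiso : IsHermIso n F 2 (Matrix.diagonal z) := by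
    rw [← hd]
    exact fun u v => d.2 u v
  have hcomm : t * d = d * t := by
    apply su_ext
    show mat t * mat d = mat d * mat t
    rw [ht, hd, utransv_conj hiso]
    have e : Matrix.diagonal z *ᵥ wVec n F = z ⟨0, by omega⟩ • wVec n F := by
      funext i
      rw [Matrix.mulVec_diagonal, Pi.smul_apply, smul_eq_mul]
      by_cases hi : (i : ℕ) < 4
      · rw [hconst i ⟨0, by omega⟩ hi (by norm_num)]
      · simp [wVec, hi]
    rw [e, utransv_smul]
    have e2 : z ⟨0, by omega⟩ ^ (2 + 1) * 1 = (1 : F) := by rw [mul_one]; exact hz3 _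
    rw [e2]
  have hC : Commute t d := hcomm
  have ht2' : t ^ 2 = 1 := by rw [pow_two, ht2]
  have hd3' : d ^ 3 = 1 := by rw [pow_succ, pow_two, hd3]
  have t4 : t ^ 4 = 1 := by rw [show (4 : ℕ) = 2 * 2 from rfl, pow_mul, ht2', one_pow]
  have d4 : d ^ 4 = d := by rw [pow_succ, hd3', one_mul]
  have t3 : t ^ 3 = t := by rw [pow_succ, ht2', one_mul]
  constructor
  · rw [hC.mul_pow, hd3', mul_one, t3]
  · rw [hC.mul_pow, t4, d4, one_mul]

theorem pairVec_prod {F : Type u} [Field F] {n : ℕ} (ω : F) (h3 : ω ^ 3 = 1) (i j : Fin n)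
    (hij : i ≠ j) : ∏ k, pairVec ω i j k = 1 := by
  have e : ∀ k : Fin n, pairVec ω i j k =
      (if k = i then ω else 1) * (if k = j then ω ^ 2 else 1) := by
    intro k
    unfold pairVec
    by_cases h1 : k = i
    · have h2 : k ≠ j := fun h => hij (h1.symm.trans h)
      rw [if_pos h1, if_pos h1, if_neg h2, mul_one]
    · rw [if_neg h1, if_neg h1, one_mul]
  rw [Finset.prod_congr rfl (fun k _ => e k), Finset.prod_mul_distrib, Finset.prod_ite_eq',
    Finset.prod_ite_eq', if_pos (Finset.mem_univ _), if_pos (Finset.mem_univ _)]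
  rw [← h3]; ring

theorem pkgQ2Gens : PkgQ2Gens.{u} := by
  intro hOm hTw hCyc hDiag F _ _ hF n hn
  obtain ⟨ω, hω1, hω3⟩ := hOm hF
  obtain ⟨t, ht⟩ := hTw hF n (by omega)
  obtain ⟨c, hc⟩ := hCyc hF n
  rcases Nat.lt_or_ge n 6 with h6 | h6
  · -- n = 5
    obtain rfl : n = 5 := by omega
    obtain ⟨z, hz⟩ : ∃ z : Fin 5 → F, z = fun k : Fin 5 => if (k : ℕ) < 4 then ω else ω ^ 2 := ⟨_, rfl⟩
    have hz3 : ∀ i, z i ^ 3 = 1 := by
      intro i
      rw [hz]
      dsimp only
      split_ifs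
      · exact hω3
      · rw [← pow_mul, mul_comm, pow_mul, hω3, one_pow]
    have hzprod : ∏ i, z i = 1 := by
      rw [Fin.prod_univ_five, hz]
      simp
      linear_combination (ω ^ 3 + 1) * hω3
    obtain ⟨d, hd⟩ := hDiag hF 5 z hz3 hzprod
    have hconst : ∀ i j : Fin 5, (i : ℕ) < 4 → (j : ℕ) < 4 → z i = z j := by
      intro i j hi hj
      rw [hz]
      simp [hi, hj]
    obtain ⟨e3, e4⟩ := gens_core hF (by norm_num) t d z ht hd hz3 hconst
    obtain ⟨p, hp⟩ := hDiag hF 5 (pairVec ω (4 : Fin 5) (0 : Fin 5)) (pairVec_cube ω hω3 _ _)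
      (pairVec_prod ω hω3 _ _ (by decide))
    have hpcd : p * c * d = d * c := by
      apply su_ext
      show mat p * mat c * mat d = mat d * mat c
      rw [hp, hd, Matrix.ext_iff_mulVec]
      intro v
      rw [← Matrix.mulVec_mulVec, ← Matrix.mulVec_mulVec, ← Matrix.mulVec_mulVec]
      funext j
      obtain ⟨i, rfl⟩ : ∃ i, finRotate 5 i = j := ⟨(finRotate 5).symm j, Equiv.apply_symm_apply _ _⟩
      rw [Matrix.mulVec_diagonal, Matrix.mulVec_diagonal, hc, hc, Matrix.mulVec_diagonal]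
      have key : pairVec ω (4 : Fin 5) (0 : Fin 5) (finRotate 5 i) * z i = z (finRotate 5 i) := by
        rw [hz, finRotate_apply]
        fin_cases i <;> simp [pairVec] <;>
          first
            | ring1
            | linear_combination ω * hω3
      rw [← key]; ring
    refine ⟨t * d, c, ω, ?_⟩
    intro K ha hb
    have htK : t ∈ K := by rw [← e3]; exact K.pow_mem ha 3
    have hdK : d ∈ K := by rw [← e4]; exact K.pow_mem ha 4
    refine ⟨hω1, hω3, ⟨t, htK, ht⟩, ⟨c, hb, hc⟩, (4 : Fin 5), p, ?_, ?_⟩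
    · have e : p = d * c * d⁻¹ * c⁻¹ := by
        rw [← hpcd]; group
      rw [e]
      exact K.mul_mem (K.mul_mem (K.mul_mem hdK hb) (K.inv_mem hdK)) (K.inv_mem hb)
    · have e : finRotate 5 (4 : Fin 5) = 0 := by decide
      rw [e]
      exact hp
  · -- n ≥ 6
    obtain ⟨n', rfl⟩ : ∃ n', n = n' + 1 := ⟨n - 1, by omega⟩
    obtain ⟨i4, hi4⟩ : ∃ i : Fin (n' + 1), (i : ℕ) = 4 := ⟨⟨4, by omega⟩, rfl⟩
    obtain ⟨i5, hi5⟩ : ∃ i : Fin (n' + 1), (i : ℕ) = 5 := ⟨⟨5, by omega⟩, rfl⟩
    have h45 : i4 ≠ i5 := by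
      intro h
      have := congrArg Fin.val h
      omega
    obtain ⟨d, hd⟩ := hDiag hF (n' + 1) (pairVec ω i4 i5) (pairVec_cube ω hω3 _ _)
      (pairVec_prod ω hω3 _ _ h45)
    have hconst : ∀ i j : Fin (n' + 1), (i : ℕ) < 4 → (j : ℕ) < 4 →
        pairVec ω i4 i5 i = pairVec ω i4 i5 j := by
      intro i j hi hj
      have h1 : ∀ k : Fin (n' + 1), (k : ℕ) < 4 → pairVec ω i4 i5 k = 1 := by
        intro k hk
        unfold pairVec
        rw [if_neg, if_neg]
        · intro h
          have := congrArg Fin.val h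
          omega
        · intro h
          have := congrArg Fin.val h
          omega
      rw [h1 i hi, h1 j hj]
    obtain ⟨e3, e4⟩ := gens_core hF (by omega) t d _ ht hd (pairVec_cube ω hω3 _ _) hconst
    refine ⟨t * d, c, ω, ?_⟩
    intro K ha hb
    have htK : t ∈ K := by rw [← e3]; exact K.pow_mem ha 3
    have hdK : d ∈ K := by rw [← e4]; exact K.pow_mem ha 4
    refine ⟨hω1, hω3, ⟨t, htK, ht⟩, ⟨c, hb, hc⟩, i4, d, hdK, ?_⟩
    have hrot : finRotate (n' + 1) i4 = i5 := by
      apply Fin.ext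
      rw [coe_finRotate_of_ne_last, hi4, hi5]
      intro h
      have := congrArg Fin.val h
      rw [hi4, Fin.val_last] at this
      omega
    rw [hrot]
    exact hd

end Cfsg.Agent.Lib.Helper59.SUG
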